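/-
Fixed-point-free action of a group of odd order on an elementary abelian group of order `p ^ 2`.
-/
import Cfsg.Agent.PF.P8_0
import Cfsg.Agent.H49.Rank
import Cfsg.Agent.H52.CF5
import Cfsg.Agent.H47.Cyc
import Cfsg.Agent.H79.Count
import Cfsg.Agent.H35.Orbits
import Cfsg.Agent.BG.L3_9

set_option autoImplicit false
set_option linter.unusedSectionVars false
set_option linter.unusedVariables false

open Cfsg Cfsg.Agent.H49 Cfsg.Agent.BG

namespace Cfsg.Agent.H74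

variable {G : Type*} [Group G] [Fintype G]

theorem card_lines {p : ℕ} (hp : p.Prime) {T : Subgroup G} (hT : IsElem p 2 T ⊤) :
    Nat.card {X : Subgroup G // IsElem p 1 X T} = p + 1 := by
  rw [← H79.card_subgroups_prime_of_card_sq (G := T) hp (fun g => Subtype.ext (hT.exp g.2)) hT.card]
  refine Nat.card_congr
    { toFun := fun X => ⟨X.1.subgroupOf T, by rw [card_subgroupOf_of_le X.2.le, X.2.card1]⟩
      invFun := fun Y => ⟨Y.1.map T.subtype, isElem_one_of_card hp (Subgroup.map_subtype_le _)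
        (by rw [Subgroup.card_map_of_injective T.subtype_injective, Y.2])⟩
      left_inv := fun X => Subtype.ext (Subgroup.map_subgroupOf_eq_of_le X.2.le)
      right_inv := fun Y => Subtype.ext
        (Subgroup.comap_map_eq_self_of_injective T.subtype_injective _) }

/-- an element normalising three distinct lines normalises every line -/
theorem scalar_of_three_lines {p : ℕ} (hp : p.Prime) {T X₁ X₂ X₃ : Subgroup G} (hT : IsElem p 2 T ⊤)
    (h₁ : IsElem p 1 X₁ T) (h₂ : IsElem p 1 X₂ T) (h₃ : IsElem p 1 X₃ T) (n₁₂ : X₁ ≠ X₂)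
    (n₁₃ : X₁ ≠ X₃) (n₂₃ : X₂ ≠ X₃) {a : G} (a₁ : a ∈ 𝒩(X₁)) (a₂ : a ∈ 𝒩(X₂)) (a₃ : a ∈ 𝒩(X₃))
    {t : G} (ht : t ∈ T) : a ∈ 𝒩(Subgroup.zpowers t) := by
  have hdp := hT.isDp hp h₁ h₂ n₁₂
  have hcomm : ∀ y ∈ T, ∀ z ∈ T, Commute y z := fun y hy z hz => (le_cent_iff.1 hT.le_cent z hz y hy)
  obtain ⟨w, hw, hw1, -, ew⟩ := h₃.exists_gen hp
  obtain ⟨u, hu, v, hv, euv⟩ := hdp.isSdp.isComplIn.2.2.2 w (h₃.le hw)
  have hu1 : u ≠ 1 := by
    rintro rfl
    rw [one_mul] at euv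
    exact n₂₃ ((h₂.eq_zpowers hp (euv ▸ hv) hw1).trans ew.symm)
  have hv1 : v ≠ 1 := by
    rintro rfl
    rw [mul_one] at euv
    exact n₁₃ ((h₁.eq_zpowers hp (euv ▸ hu) hw1).trans ew.symm)
  have hk : a * w * a⁻¹ ∈ Subgroup.zpowers w := ew ▸ (Subgroup.mem_normalizer_iff.1 a₃ w).1 hw
  obtain ⟨k, hk⟩ := Subgroup.mem_zpowers_iff.1 hk
  have hu' := (Subgroup.mem_normalizer_iff.1 a₁ u).1 hu
  have hv' := (Subgroup.mem_normalizer_iff.1 a₂ v).1 hv
  have e1 : (u ^ k)⁻¹ * (a * u * a⁻¹) = v ^ k * (a * v * a⁻¹)⁻¹ := by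
    have : u ^ k * v ^ k = (a * u * a⁻¹) * (a * v * a⁻¹) := by
      rw [← (hcomm u (h₁.le hu) v (h₂.le hv)).mul_zpow, ← euv, hk, euv]; group
    calc (u ^ k)⁻¹ * (a * u * a⁻¹)
        = (u ^ k)⁻¹ * ((a * u * a⁻¹) * (a * v * a⁻¹)) * (a * v * a⁻¹)⁻¹ := by group
      _ = _ := by rw [← this]; group
  have e2 : (u ^ k)⁻¹ * (a * u * a⁻¹) ∈ X₁ ⊓ X₂ :=
    Subgroup.mem_inf.2 ⟨mul_mem (inv_mem (zpow_mem hu k)) hu',
      by rw [e1]; exact mul_mem (zpow_mem hv k) (inv_mem hv')⟩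
  rw [hdp.2.1, Subgroup.mem_bot] at e2
  have eu : a * u * a⁻¹ = u ^ k := (inv_mul_eq_one.1 e2).symm
  have ev : a * v * a⁻¹ = v ^ k := (mul_inv_eq_one.1 (e1 ▸ e2)).symm
  have gen : ∀ s : G, a * s * a⁻¹ = s ^ k → ∀ y ∈ Subgroup.zpowers s, a * y * a⁻¹ = y ^ k := by
    intro s hs y hy
    obtain ⟨i, rfl⟩ := Subgroup.mem_zpowers_iff.1 hy
    rw [← conj_zpow, hs, ← zpow_mul, ← zpow_mul, mul_comm]
  obtain ⟨y, hy, z, hz, rfl⟩ := hdp.isSdp.isComplIn.2.2.2 t ht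
  have e3 : a * (y * z) * a⁻¹ = (y * z) ^ k := by
    rw [(hcomm y (h₁.le hy) z (h₂.le hz)).mul_zpow, ← gen u eu y (h₁.eq_zpowers hp hu hu1 ▸ hy),
      ← gen v ev z (h₂.eq_zpowers hp hv hv1 ▸ hz)]
    group
  refine mem_norm_of_cj_le ?_
  rw [cj_zpowers, e3]
  exact Subgroup.zpowers_le.2 (zpow_mem (Subgroup.mem_zpowers _) k)

theorem card_dvd_of_semiregular_rank_two {p : ℕ} (hp : p.Prime) {T E : Subgroup G}
    (hT : IsElem p 2 T ⊤) (hodd : Odd (Nat.card E)) (hn : E ≤ 𝒩(T)) (hreg : Semiregular T E)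
    {x : G} (hx : x ∈ T) (hEx : E ⊓ 𝒩(Subgroup.zpowers x) = ⊥) :
    Nat.card E ∣ p - 1 ∨ Nat.card E ∣ p + 1 := by
  by_cases h : ∃ X, IsElem p 1 X T ∧ E ⊓ 𝒩(X) ≠ ⊥
  · left
    obtain ⟨X, hX, hne⟩ := h
    obtain ⟨A, hA, hAp⟩ := H47.exists_prime_le hne
    have hAE : A ≤ E := hA.trans inf_le_left
    have nA : E ≤ 𝒩(A) := l3_9_normal hAp hodd hAE (hT.ne_bot hp two_ne_zero) hn hreg
    have hAc : ∀ g ∈ E, A ≤ 𝒩(cj g X) := fun g hg => by
      rw [← cj_normalizer, ← cj_eq_of_mem_norm (nA hg)]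
      exact cj_mono g (hA.trans inf_le_right)
    have nX : E ≤ 𝒩(X) := by
      intro g hg
      by_contra hgX
      refine ne_bot_of_prime_card hAp (eq_bot_iff.2 (hEx ▸ le_inf hAE fun a ha => ?_))
      refine scalar_of_three_lines hp hT hX (hX.cj_of_mem_norm (hn hg))
        (hX.cj_of_mem_norm (hn (inv_mem hg))) (fun e => hgX (mem_norm_iff_cj.2 e.symm))
        (fun e => hgX (inv_mem_iff.1 (mem_norm_iff_cj.2 e.symm))) (fun e => hgX ?_)
        (hA ha).2 (hAc g hg ha) (hAc _ (inv_mem hg) ha) hx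
      refine H52.mem_of_sq_mem_of_odd hodd hg (mem_norm_iff_cj.2 ?_)
      rw [cj_mul, e, cj_cj_inv]
    have := PF.semiregular_card_dvd nX (H47.semiregular_mono hreg hX.le le_rfl)
    rwa [hX.card1] at this
  · right
    push Not at h
    let act : MulAction E {X : Subgroup G // IsElem p 1 X T} :=
      { smul := fun g X => ⟨cj (g : G) X.1, X.2.cj_of_mem_norm (hn g.2)⟩
        one_smul := fun X => Subtype.ext (cj_one _)
        mul_smul := fun a b X => Subtype.ext (cj_mul _ _ _) }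
    rw [← card_lines hp hT]
    refine H35.dvd_card_of_dvd_orbits (H := E) _ fun X => ?_
    rw [Nat.card_coe_set_eq, ← MulAction.index_stabilizer]
    have : MulAction.stabilizer E X = ⊥ := by
      rw [eq_bot_iff]
      intro g hg
      have h1 : cj (g : G) X.1 = X.1 := congrArg Subtype.val (MulAction.mem_stabilizer_iff.1 hg)
      have h2 : (g : G) ∈ E ⊓ 𝒩(X.1) := ⟨g.2, mem_norm_iff_cj.2 h1⟩
      rw [h X.1 X.2] at h2
      exact Subtype.ext h2
    rw [this, Subgroup.index_bot]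

end Cfsg.Agent.H74
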